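import Mathlib

set_option autoImplicit false
set_option maxRecDepth 100000

namespace Cfsg.Agent.Lib.Helper3.A5b.L1

noncomputable def fc0_0 (i : ℕ) : ℕ := (nat_lit 0x4000083000004000082000000000003000000000002000002000063000003000042000002000041000002000041000000000006000000000006000000000005000000000004000003000081000004000061000001000062000003000023000001000043000002000022000000000021000001000001)
noncomputable def sc0_0 (i : ℕ) : ℕ := (nat_lit 0xb00000300000500000f00001100000100001000000c00000a000900040000060001000300000b0000080002000200000900000b00000100000a000008000500010000fffe0000fffe0000ffff0000ffff0000ffff0000ffff)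
noncomputable def nc0_0 (i : ℕ) : ℕ := (nat_lit 0x4000003000002000001000000)
noncomputable def cc0_0 (i : ℕ) : ℕ := (nat_lit 0x400001200000300000600000200000e00000400000700000100000200000200000c000003000005000000000000000000000010000001000001)

end Cfsg.Agent.Lib.Helper3.A5b.L1
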