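import Mathlib

set_option autoImplicit false
set_option maxRecDepth 100000

namespace Cfsg.Agent.Lib.Helper3.A5b.L2

noncomputable def fc0_0 (i : ℕ) : ℕ := (nat_lit 0x3000065000003000064000001000045000002000024000001000046000002000026000000000008000000000007000000000066000003000006000000000044000002000005000000000025000001000004)
noncomputable def sc0_0 (i : ℕ) : ℕ := (nat_lit 0x700000800000300000b0000060005000300000900000600020002000007000000000004000300010000fffe0000ffff0000ffff0000ffff)
noncomputable def nc0_0 (i : ℕ) : ℕ := (nat_lit 0x3000002000001000000)
noncomputable def cc0_0 (i : ℕ) : ℕ := (nat_lit 0x400000300000c00000100000800000100000a000002000009000000000000000003000005000002000003)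

end Cfsg.Agent.Lib.Helper3.A5b.L2
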