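import Mathlib

set_option autoImplicit false
set_option maxRecDepth 100000

namespace Cfsg.Agent.Lib.Helper3.A5b.L3

noncomputable def fc0_0 (i : ℕ) : ℕ := (nat_lit 0x1000048000002000027000000000047000002000008000000000028000001000007)
noncomputable def sc0_0 (i : ℕ) : ℕ := (nat_lit 0x3000000000200010000ffff0000ffff)
noncomputable def nc0_0 (i : ℕ) : ℕ := (nat_lit 0x2000001000000)
noncomputable def cc0_0 (i : ℕ) : ℕ := (nat_lit 0x1000004000000000000000002000003)

end Cfsg.Agent.Lib.Helper3.A5b.L3
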